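import Cfsg.Agent.FF2.TI
import Cfsg.Agent.S1329
import Cfsg.Agent.S0215
import Cfsg.Agent.S0205

/-! The case of an involution: a four-group of conjugates. -/

set_option autoImplicit false

namespace Cfsg.Lib.FF2

open Subgroup Cfsg.Lib.Solv
open scoped commutatorElement

variable {G : Type*} [Group G] [Finite G]
variable {H Q W : Subgroup G} {a g t x : G} {p q : ℕ}

theorem ex_core (q : ℕ) (H : Subgroup G) : ∃ O : Subgroup G, IsPGroup q O ∧ O ≤ H ∧ H ≤ Nm O ∧
    ∀ D : Subgroup G, IsPGroup q D → D ≤ H → H ≤ Nm D → D ≤ O := by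
  obtain ⟨O, -, m⟩ := Finite.exists_le_maximal
    (p := fun O : Subgroup G => IsPGroup q O ∧ O ≤ H ∧ H ≤ Nm O) (a := ⊥)
    ⟨IsPGroup.of_bot, bot_le, fun _ _ => cj_eq_iff.1 cj_bot⟩
  exact ⟨O, m.1.1, m.1.2.1, m.1.2.2, fun D a b c => le_sup_left.trans (m.2
    ⟨a.to_sup_of_normal_right' m.1.1 (b.trans m.1.2.2), sup_le b m.1.2.1,
      fun g hg => nm_sup (c hg) (m.1.2.2 hg)⟩ le_sup_right)⟩

theorem Hy.solv (h : Hy p x) (N : Subgroup G) (n : N.Normal) (s : Group.IsSolvable N) :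
    N = ⊥ := by
  induction N using WellFoundedLT.induction with
  | ind N ih =>
    by_contra k
    have := ih _ (FT.sol_der1_proper s k) inferInstance
      (Group.isSolvable_of_isSolvable_injective (inclusion_injective (commutator_le_left N N)))
    exact k (h.nf N n (nil_of_comm fun a ha b hb => comm_eq_bot.1 this hb a ha))

theorem Hy.ex_t (h : Hy 2 x) : ∃ g, g * x * g⁻¹ ≠ x ∧ Commute x (g * x * g⁻¹) := by
  by_contra k
  push Not at k
  replace k : ∀ g, Commute x (g * x * g⁻¹) → g * x * g⁻¹ = x := fun g c => by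
    by_contra e; exact k g e c
  obtain ⟨T, hT⟩ := (IsPGroup.of_card (p := 2) (n := 1) (G := zpowers x) h.czp).exists_le_sylow
  have xT := hT (mem_zpowers x)
  have c : (T : Subgroup G) ≤ Cn (zpowers x) := by
    by_contra c
    refine (PG.lt_inf_normalizer_of_isNilpotent T.isPGroup'.isNilpotent
      (inf_lt_left.2 c)).not_ge fun r hr => ⟨hr.1, mem_cn_zp.2 ?_⟩
    have := k r (mem_cn_zp.1 (nm_cj hr.2 ⟨xT, mem_cn_zp.2 (Commute.refl x)⟩).2)
    exact (mul_inv_eq_iff_eq_mul.1 this).symm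
  obtain ⟨N, n1, n2, n3⟩ := Cfsg.Agent.S0215.result T x h.ord xT
    fun g hg => k g (mem_cn_zp.1 (c hg))
  rw [h.solv N n1 (Cfsg.Agent.S0205.result n2)] at n3
  refine h.cn_ne (D := zpowers x) (by simpa using h.ne1) (eq_top_iff.2 fun g _ => mem_cn_zp.2 ?_)
  have := mem_bot.1 (n3 g)
  rwa [mul_inv_eq_one, mul_inv_eq_iff_eq_mul] at this

omit [Finite G] in
theorem mem_V (hx : x ^ 2 = 1) (ht : t ^ 2 = 1) (c : Commute x t) :
    a ∈ closure {x, t} ↔ a = 1 ∨ a = x ∨ a = t ∨ a = x * t := by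
  have hx' : ∀ y, x * (x * y) = y := fun y => by rw [← mul_assoc, ← pow_two, hx, one_mul]
  have c' : ∀ y, t * (x * y) = x * (t * y) := fun y => by rw [← mul_assoc, ← c.eq, mul_assoc]
  rw [pow_two] at hx ht
  have m1 : x ∈ closure {x, t} := subset_closure (by simp)
  have m2 : t ∈ closure {x, t} := subset_closure (by simp)
  refine ⟨fun k => ?_, ?_⟩
  · induction k using closure_induction with
    | mem y hy => rcases hy with rfl | rfl <;> simp
    | one => simp
    | mul y z _ _ h1 h2 =>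
      rcases h1 with rfl | rfl | rfl | rfl <;> rcases h2 with rfl | rfl | rfl | rfl <;>
        simp [hx, ht, hx', c', c.symm.eq, mul_assoc]
    | inv y _ h1 =>
      rcases h1 with rfl | rfl | rfl | rfl <;>
        simp [inv_eq_of_mul_eq_one_left hx, inv_eq_of_mul_eq_one_left ht, c.symm.eq]
  · rintro (rfl | rfl | rfl | rfl)
    exacts [one_mem _, m1, m2, mul_mem m1 m2]

omit [Finite G] in
theorem V_comm (c : Commute x t) : IsMulCommutative (closure {x, t} : Subgroup G) :=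
  isMulCommutative_closure (by
    rintro _ (rfl | rfl) _ (rfl | rfl)
    exacts [rfl, c.eq, c.symm.eq, rfl])

omit [Finite G] in
theorem V_sq (hx : x ^ 2 = 1) (ht : t ^ 2 = 1) (c : Commute x t) (k : a ∈ closure {x, t}) :
    a ^ 2 = 1 := by
  rcases (mem_V hx ht c).1 k with rfl | rfl | rfl | rfl
  exacts [one_pow _, hx, ht, by rw [c.mul_pow, hx, ht, one_mul]]

omit [Finite G] in
theorem V_pg (hx : x ^ 2 = 1) (ht : t ^ 2 = 1) (c : Commute x t) :
    IsPGroup 2 (closure {x, t} : Subgroup G) := pg_of fun _ k => ⟨1, V_sq hx ht c k⟩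

omit [Finite G] in
theorem V_nc (hx : x ^ 2 = 1) (ht : t ^ 2 = 1) (c : Commute x t) (x1 : x ≠ 1) (t1 : t ≠ 1)
    (ne : t ≠ x) : ¬ IsCyclic (closure {x, t} : Subgroup G) := fun k => by
  obtain ⟨g, hg⟩ := k.exists_zpow_surjective
  have g2 : (g : G) ^ (2 : ℤ) = 1 := by simpa using V_sq hx ht c g.2
  have f : ∀ y ∈ closure {x, t}, y ≠ 1 → y = g := fun y hy y1 => by
    obtain ⟨n, e⟩ := hg ⟨y, hy⟩
    have e : (g : G) ^ n = y := congrArg Subtype.val e
    obtain ⟨m, rfl | rfl⟩ := Int.even_or_odd' n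
    · exact absurd (by rw [← e, zpow_mul, g2, one_zpow]) y1
    · rw [← e, zpow_add, zpow_mul, g2, one_zpow, one_mul, zpow_one]
  exact ne ((f t (subset_closure (by simp)) t1).trans (f x (subset_closure (by simp)) x1).symm)

omit [Finite G] in
theorem comm_V (hx : x ^ 2 = 1) (ht : t ^ 2 = 1) (c : Commute x t) (n : x ∈ Nm W)
    (h1 : ⁅Q, zpowers x⁆ ≤ W) (h2 : ⁅Q, zpowers t⁆ ≤ W) : ⁅Q, closure {x, t}⁆ ≤ W :=
  commutator_le.2 fun s hs b hb => by
    have a1 := h1 (commutator_mem_commutator hs (mem_zpowers x))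
    have a2 := h2 (commutator_mem_commutator hs (mem_zpowers t))
    rcases (mem_V hx ht c).1 hb with rfl | rfl | rfl | rfl
    · simp
    · exact a1
    · exact a2
    · have : ⁅s, x * t⁆ = ⁅s, x⁆ * (x * ⁅s, t⁆ * x⁻¹) := by
        simp only [commutatorElement_def]; group
      rw [this]
      exact mul_mem a1 (nm_cj n a2)

theorem Hy.oh [Fact q.Prime] (h : Hy 2 x) (ht : Hy 2 t) (c : Commute x t) (hq : q ≠ 2)
    (k : H ≠ ⊤) (l : closure {x, t} ≤ H) : ∃ O : Subgroup G, IsPGroup q O ∧ O ≤ H ∧ H ≤ Nm O ∧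
      ∀ Q : Subgroup G, IsPGroup q Q → closure {x, t} ≤ Nm Q → Q ≤ H →
        ⁅Q, closure {x, t}⁆ ≤ O := by
  have m1 : x ∈ closure {x, t} := subset_closure (by simp)
  have m2 : t ∈ closure {x, t} := subset_closure (by simp)
  obtain ⟨O, o1, o2, o3, o4⟩ := ex_core q H
  have f : ∀ y, Hy 2 y → y ∈ closure {x, t} → ∀ Q : Subgroup G, IsPGroup q Q →
      closure {x, t} ≤ Nm Q → Q ≤ H → ⁅Q, zpowers y⁆ ≤ O := fun y hy m Q a b d => by
    obtain ⟨K, Y, z⟩ := hy.ky k (l m)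
    have n := zpowers_le.2 (b m)
    exact (le_qp (a.to_le (comm_le n)) (z.cm Q d (pg_cop a
      ((Nat.coprime_primes Fact.out Nat.prime_two).2 hq)) n)).trans (o4 _ (qp_pg z.nil)
        (qp_le.trans (z.ky.trans z.yh)) fun _ hg => nm_qp (z.nk hg))
  exact ⟨O, o1, o2, o3, fun Q a b d =>
    comm_V h.xp ht.xp c (o3 (l m1)) (f x h m1 Q a b d) (f t ht m2 Q a b d)⟩

theorem Hy.tiV [Fact q.Prime] (h : Hy 2 x) (hq : q ≠ 2) (ne : g * x * g⁻¹ ≠ x)
    (hc : Commute x (g * x * g⁻¹)) : TIq q (closure {x, g * x * g⁻¹}) := by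
  have ht := h.cj g
  generalize g * x * g⁻¹ = t at *
  have cq := (Nat.coprime_primes Nat.prime_two (Fact.out : q.Prime)).2 hq.symm
  have vp := V_pg h.xp ht.xp hc
  have vc := V_comm hc
  obtain ⟨O', o1, o2, o3, o4⟩ := ex_core q (Cn (closure {x, t}))
  refine ti_gen (pg_cop vp cq) (fun U u1 u2 u3 => ?_) o1 o2 o3 fun S hS => ?_
  · obtain ⟨O, a, b, c, d⟩ := h.oh ht hc hq (h.nm_ne u1 u2.isNilpotent) u3
    exact ⟨O, a, b, c, fun D m l => m.cm.symm.trans_le (d D m.pg m.nm l)⟩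
  rw [Cfsg.Agent.S1329.result _ _ S vp vc le_rfl
    (Nat.coprime_two_right.1 (pg_cop hS.pg cq.symm)) hS.nm hS.cm]
  refine iSup_le fun ⟨B, b1, b2⟩ => ?_
  have ne' : B ≠ ⊥ := fun e => V_nc h.xp ht.xp hc h.ne1 ht.ne1 ne (by
    have := @b2 inferInstance
    exact isCyclic_of_injective (QuotientGroup.mk' (B.subgroupOf (closure {x, t})))
      ((MonoidHom.ker_eq_bot_iff _).1 (by rw [QuotientGroup.ker_mk', e, bot_subgroupOf])))
  have l1 : Cn (closure {x, t}) ≤ Cn B := centralizer_le b1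
  have l2 : closure {x, t} ≤ Cn B := (le_centralizer _).trans l1
  obtain ⟨O, a, b, c, d⟩ := h.oh ht hc hq (h.cn_ne ne') l2
  refine le_trans (le_inf (inf_le_right.trans (d _ hS.pg.to_inf_left (fun g hg =>
    nm_inf (hS.nm hg) (le_normalizer (l2 hg))) inf_le_right)) (inf_le_left.trans inf_le_right))
    (o4 _ a.to_inf_left inf_le_right fun g hg => nm_inf (c (l1 hg)) (le_normalizer hg))

end Cfsg.Lib.FF2
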